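import Mathlib
import Cfsg.Agent.Lib.Helper94.OMG.Defs
import Cfsg.Agent.Lib.Helper99.Quad3
import Cfsg.Agent.Lib.Helper14.Isom
import Cfsg.Agent.Lib.Helper14.Forms
import Cfsg.Agent.Lib.Helper44.Char2Forms
import Cfsg.Agent.Lib.Helper73.OHyp.CntWitt
import Cfsg.Agent.S0750

/-!
# Project OMG (S2415): package [MIXW]

Witt: a nondegenerate plus-type subspace of dimension `2 k - 2` of the minus space contains the
image under an isometry of the standard vectors `e_i, f_i`, `i + 1 < k`.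
-/

set_option autoImplicit false
open scoped Matrix MatrixGroups

namespace Cfsg.Agent.Lib.Helper34.OMG

open Matrix Module
open Cfsg.Agent.Lib.Helper94.OMG Cfsg.Agent.Lib.Helper99 Cfsg.Agent.Lib.Helper14
open Cfsg.Agent.Lib.Helper23.OHyp Cfsg.Agent.Lib.Helper64.OParM

universe u

/-- A hyperbolic family is moved by an isometry into any nondegenerate subspace containing a
totally singular subspace of at least the same size. -/
theorem hypFam_into {F : Type u} [Field F] [Fintype F] {ι : Type} [Fintype ι] [DecidableEq ι]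
    (Q' : QuadraticForm F (ι → F)) (hQ : (QuadraticMap.polarBilin Q').Nondegenerate)
    (n : ℕ) (e0 f0 : Fin n → (ι → F)) (hH0 : HypFam Q' e0 f0)
    (C U : Submodule F (ι → F)) (hndC : QNondegOn Q' C) (hUC : U ≤ C)
    (hU : ∀ w ∈ U, Q' w = 0) (hn : n ≤ finrank F U) :
    ∃ h : ↥(Cfsg.isometryGroup F ⇑Q'), ∀ i : Fin n,
      ((h : GL ι F) : Matrix ι ι F) *ᵥ e0 i ∈ C ∧ ((h : GL ι F) : Matrix ι ι F) *ᵥ f0 i ∈ C := by
  obtain ⟨e', f', hH', hef'⟩ := hyp_of_singular Q' n C U hndC hUC hU hn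
  obtain ⟨z, hzdef⟩ : ∃ z : Fin 0 → (ι → F), z = fun j => j.elim0 := ⟨_, rfl⟩
  have hz : LinearIndependent F z := linearIndependent_empty_type
  have hp : ∀ j i, QuadraticMap.polar Q' (z j) (e0 i) = 0 ∧
      QuadraticMap.polar Q' (z j) (f0 i) = 0 := fun j => j.elim0
  have hp' : ∀ j i, QuadraticMap.polar Q' (z j) (e' i) = 0 ∧
      QuadraticMap.polar Q' (z j) (f' i) = 0 := fun j => j.elim0
  have hli := hyp_li Q' e0 f0 hH0 z hz hp
  have hli' := hyp_li Q' e' f' hH' z hz hp'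
  obtain ⟨bX, hbX⟩ : ∃ bX : Basis _ F _, bX = Basis.span hli := ⟨_, rfl⟩
  obtain ⟨bY, hbY⟩ : ∃ bY : Basis _ F _, bY = Basis.span hli' := ⟨_, rfl⟩
  have hbXc : ∀ i, ((bX i : _) : ι → F) = (Sum.elim (Sum.elim e0 f0) z) i := by
    intro i; rw [hbX]; exact congrArg Subtype.val (Basis.span_apply hli i)
  have hbYc : ∀ i, ((bY i : _) : ι → F) = (Sum.elim (Sum.elim e' f') z) i := by
    intro i; rw [hbY]; exact congrArg Subtype.val (Basis.span_apply hli' i)
  obtain ⟨φ, hφdef⟩ : ∃ φ, φ = bX.equiv bY (Equiv.refl _) := ⟨_, rfl⟩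
  have hφb : ∀ i, φ (bX i) = bY i := by
    intro i; rw [hφdef, Basis.equiv_apply]; rfl
  have hφ : ∀ y, Q' (φ y : ι → F) = Q' (y : ι → F) := by
    intro y
    have h1 : (y : ι → F) = ∑ i, bX.repr y i • (Sum.elim (Sum.elim e0 f0) z) i := by
      have h0 := congrArg Subtype.val (bX.sum_repr y)
      exact h0.symm.trans (by
        rw [Submodule.coe_sum]
        exact Finset.sum_congr rfl (fun i _ => by rw [Submodule.coe_smul, hbXc]))
    have h2 : (φ y : ι → F) = ∑ i, bX.repr y i • (Sum.elim (Sum.elim e' f') z) i := by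
      have h0 : φ y = ∑ i, bX.repr y i • bY i := by
        conv_lhs => rw [← bX.sum_repr y]
        rw [map_sum]
        apply Finset.sum_congr rfl
        intro i _
        rw [map_smul, hφb]
      rw [h0, Submodule.coe_sum]
      exact Finset.sum_congr rfl (fun i _ => by rw [Submodule.coe_smul, hbYc])
    rw [h1, h2, Cfsg.Agent.Lib.Helper73.OHyp.q_comb Q' e0 f0 hH0 z hp,
      Cfsg.Agent.Lib.Helper73.OHyp.q_comb Q' e' f' hH' z hp']
  obtain ⟨g, hgQ, hgφ⟩ := Cfsg.Agent.S0750.result Q' hQ _ _ φ hφ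
  have hgb : ∀ i, g ((Sum.elim (Sum.elim e0 f0) z) i) = (Sum.elim (Sum.elim e' f') z) i := by
    intro i
    have h1 := hgφ (bX i)
    rw [hbXc, hφb, hbYc] at h1
    exact h1
  obtain ⟨A, hAdef⟩ : ∃ A : Matrix ι ι F, A = LinearMap.toMatrix' (g : (ι → F) →ₗ[F] (ι → F)) :=
    ⟨_, rfl⟩
  have hAg : Matrix.toLin' A = (g : (ι → F) →ₗ[F] (ι → F)) := by
    rw [hAdef, Matrix.toLin'_toMatrix']
  have hA : ∀ v, A *ᵥ v = g v := by
    intro v
    rw [← Matrix.toLin'_apply, hAg]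
    rfl
  have hAQ : ∀ v, Q' (A *ᵥ v) = Q' v := fun v => by rw [hA]; exact hgQ v
  refine ⟨(mkIsom Q' hQ A hAQ : ↥(Cfsg.isometryGroup F ⇑Q')), fun i => ⟨?_, ?_⟩⟩
  · show A *ᵥ e0 i ∈ C
    rw [hA]
    have h1 := hgb (Sum.inl (Sum.inl i))
    simp only [Sum.elim_inl] at h1
    rw [h1]
    exact (hef' i).1
  · show A *ᵥ f0 i ∈ C
    rw [hA]
    have h1 := hgb (Sum.inl (Sum.inr i))
    simp only [Sum.elim_inl, Sum.elim_inr] at h1
    rw [h1]
    exact (hef' i).2

/-- [MIXW] -/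
theorem pkgMixW : Cfsg.Agent.Lib.Helper94.OMG.PkgMixW.{u} := by
  intro F _ _ k a b hab hk C hNd hPlus hdim
  obtain ⟨U, hUC, hUts, hUdim⟩ := hPlus
  have hQnd := Cfsg.Agent.Lib.Helper44.minusQF_nondegenerate_all k F a b hab
  have hcoe := minusQF_coe k F a b
  have key : ∀ (Qf : (MI k → F) → F), ⇑(minusQF k F a b) = Qf →
      Cfsg.Geo.IsNondegenerateOn (QuadraticMap.polar Qf) C →
      Cfsg.Geo.IsTotallySingularQuad Qf U →
      (∀ i : Fin k, Qf (eM i) = 0 ∧ Qf (fM i) = 0) →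
      (∀ (i : Fin k) (x : MI k → F), QuadraticMap.polar Qf (eM i) x = x (Sum.inl (Sum.inr i))) →
      (∀ (i : Fin k) (x : MI k → F), QuadraticMap.polar Qf (fM i) x = x (Sum.inl (Sum.inl i))) →
      ∃ h : ↥(Cfsg.isometryGroup F Qf), ∀ i : Fin k, i.val + 1 < k →
        ((h : GL (MI k) F) : Matrix (MI k) (MI k) F) *ᵥ (eM i : MI k → F) ∈ C ∧
        ((h : GL (MI k) F) : Matrix (MI k) (MI k) F) *ᵥ (fM i : MI k → F) ∈ C := by
    intro Qf hQf hNd' hUts' hQ0 hpe hpf
    subst hQf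
    have hndC : QNondegOn (minusQF k F a b) C := by
      intro u hu h
      by_contra hu0
      obtain ⟨y, hy, hne⟩ := (hNd' u hu hu0).2
      exact hne (h y hy)
    have hUk : k - 1 ≤ finrank F U := by omega
    obtain ⟨c0, hc0⟩ : ∃ c0 : Fin (k - 1) → Fin k, ∀ i, (c0 i).val = i.val :=
      ⟨fun i => ⟨i.val, by omega⟩, fun i => rfl⟩
    have hinj : ∀ i j, c0 i = c0 j → i = j := by
      intro i j h
      apply Fin.ext
      rw [← hc0 i, ← hc0 j, h]
    have hH0 : HypFam (minusQF k F a b) (fun i => (eM (c0 i) : MI k → F))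
        (fun i => (fM (c0 i) : MI k → F)) := by
      refine ⟨fun i => hQ0 (c0 i), fun i j => ?_, fun i j => ⟨?_, ?_⟩⟩
      · show QuadraticMap.polar (⇑(minusQF k F a b)) (eM (c0 i)) (fM (c0 j)) = _
        rw [hpe]
        by_cases hij : i = j
        · subst hij
          simp
        · have : c0 j ≠ c0 i := fun h => hij (hinj j i h).symm
          simp [hij, this]
      · show QuadraticMap.polar (⇑(minusQF k F a b)) (eM (c0 i)) (eM (c0 j)) = _
        rw [hpe]
        simp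
      · show QuadraticMap.polar (⇑(minusQF k F a b)) (fM (c0 i)) (fM (c0 j)) = _
        rw [hpf]
        simp
    obtain ⟨h, hh⟩ := hypFam_into (minusQF k F a b) hQnd (k - 1) _ _ hH0 C U hndC hUC hUts' hUk
    refine ⟨h, fun i hi => ?_⟩
    have hi' : i.val < k - 1 := by omega
    have hci : c0 ⟨i.val, hi'⟩ = i := Fin.ext (hc0 _)
    have := hh ⟨i.val, hi'⟩
    simp only [hci] at this
    exact this
  refine key (Cfsg.quadFormMinus k F a b) hcoe hNd hUts (fun i => ⟨?_, ?_⟩)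
    (fun i x => minus_polar_inl k F a b i x) (fun i x => minus_polar_inr k F a b i x)
  · simp [Cfsg.quadFormMinus]
  · simp [Cfsg.quadFormMinus]

end Cfsg.Agent.Lib.Helper34.OMG
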